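import Mathlib
import Cfsg.Agent.H29.Dickson.FiniteClassify
import Cfsg.Agent.H29.Dickson.Subfields
import Cfsg.Agent.SL2.Elements

set_option autoImplicit false

/-!
Dickson for `SL₂`: two Sylow `p`-subgroups give `SL₂(p)`.
-/

namespace CfsgLib.H29.DicksonSL

open CfsgLib.H29.Dickson Matrix OnePoint MulAction

theorem subsingleton_sylow {G : Type*} [Group G] [Finite G] {p : ℕ} [Fact p.Prime]
    (h : ∀ g g' : G, (∃ k, g ^ p ^ k = 1) → (∃ k, g' ^ p ^ k = 1) → ∃ k, (g * g') ^ p ^ k = 1) :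
    Subsingleton (Sylow p G) := by
  let Q : Subgroup G :=
    { carrier := {g | ∃ k, g ^ p ^ k = 1}
      one_mem' := ⟨0, one_pow _⟩
      mul_mem' := fun {a b} ha hb => h a b ha hb
      inv_mem' := fun {a} ⟨k, hk⟩ => ⟨k, by rw [inv_pow, hk, inv_one]⟩ }
  have hQ : IsPGroup p Q := by
    rintro ⟨g, k, hk⟩
    exact ⟨k, Subtype.ext hk⟩
  refine ⟨fun P R => Sylow.ext ?_⟩
  have hle : ∀ P : Sylow p G, (P : Subgroup G) = Q := fun P => by
    refine (P.is_maximal' hQ fun g hg => ?_).symm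
    obtain ⟨k, hk⟩ := P.2 ⟨g, hg⟩
    exact ⟨k, congrArg Subtype.val hk⟩
  rw [hle P, hle R]

variable {F : Type*} [Field F] [Fintype F] (p : ℕ) [Fact p.Prime] [CharP F p]

omit [Fintype F] in
theorem pow_eq_one_of_fix {g : P2 F} {x : OnePoint F} (hx : g • x = x) {k : ℕ} (hk : g ^ p ^ k = 1) :
    g ^ p = 1 := by
  obtain ⟨χ, hχ⟩ := exists_chi p (Subgroup.zpowers g) x
  have hu : χ ⟨⟨g, Subgroup.mem_zpowers g⟩, hx⟩ = 1 := by
    have h1 : (χ ⟨⟨g, Subgroup.mem_zpowers g⟩, hx⟩) ^ p ^ k = 1 := by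
      rw [← map_pow, show (⟨⟨g, Subgroup.mem_zpowers g⟩, hx⟩ : stabilizer (Subgroup.zpowers g) x) ^ p ^ k = 1
        from Subtype.ext (Subtype.ext hk), map_one]
    have h2 : ((χ ⟨⟨g, Subgroup.mem_zpowers g⟩, hx⟩ : Fˣ) : F) ^ p ^ k = (1 : F) ^ p ^ k := by
      rw [← Units.val_pow_eq_pow_val, h1, one_pow, Units.val_one]
    exact Units.ext (iterateFrobenius_inj F p k h2)
  exact (hχ _).mp hu

/-- A subgroup of `PGL₂(F)` with two Sylow `p`-subgroups contains a conjugate of `PSL₂` of a subfield. -/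
theorem exists_PS (hp : p ≠ 2) (G : Subgroup (P2 F)) (hG : ¬ Subsingleton (Sylow p G)) :
    ∃ (γ : P2 F) (L : Subfield F), PS L ≤ G.map (MulAut.conj γ).toMonoidHom := by
  have := finite_P2 (F := F)
  have hp' : ¬ p ∣ Nat.card G → False := fun h => hG (subsingleton_sylow fun g g' ⟨k, hk⟩ ⟨k', hk'⟩ => by
    have one : ∀ (x : G) (k : ℕ), x ^ p ^ k = 1 → x = 1 := fun x k hx => by
      obtain ⟨j, -, hj⟩ := (Nat.dvd_prime_pow Fact.out).mp (orderOf_dvd_of_pow_eq_one hx)
      rcases Nat.eq_zero_or_pos j with rfl | hj0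
      · rwa [pow_zero, orderOf_eq_one_iff] at hj
      · exact absurd ((dvd_pow_self p hj0.ne').trans (hj ▸ orderOf_dvd_natCard x)) h
    exact ⟨0, by rw [one g k hk, one g' k' hk']; simp⟩)
  cases subKind p G with
  | borel x h =>
    refine absurd (subsingleton_sylow fun g g' ⟨k, hk⟩ ⟨k', hk'⟩ => ?_) hG
    obtain ⟨χ, hχ⟩ := exists_chi p G x
    have hs : ∀ (u : G), u ∈ stabilizer G x := fun u => h u u.2
    have hχ1 : ∀ (u : G) (j : ℕ), u ^ p ^ j = 1 → χ ⟨u, hs u⟩ = 1 := fun u j hj =>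
      (hχ _).mpr (pow_eq_one_of_fix p (h u u.2) (k := j) (congrArg Subtype.val hj))
    refine ⟨1, ?_⟩
    rw [pow_one]
    have h2 := (hχ ⟨g * g', hs _⟩).mp (by
      rw [show (⟨g * g', hs (g * g')⟩ : stabilizer G x) = ⟨g, hs g⟩ * ⟨g', hs g'⟩ from rfl, map_mul,
        hχ1 g k hk, hχ1 g' k' hk', mul_one])
    exact Subtype.ext h2
  | cyclic a b c hc hc1 hab hle hpn => exact (hp' hpn).elim
  | dih a b c hc hc1 hab hcab hle m hm hord hmc e =>
    refine absurd (subsingleton_sylow fun g g' ⟨k, hk⟩ ⟨k', hk'⟩ => ?_) hG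
    obtain ⟨e⟩ := e
    have rot : ∀ (u : G) (j : ℕ), u ^ p ^ j = 1 → ∃ i, e u = DihedralGroup.r i := by
      intro u j hj
      cases hu : e u with
      | r i => exact ⟨i, rfl⟩
      | sr i =>
        exfalso
        have hord : orderOf u = 2 := by
          rw [← e.orderOf_eq, hu, DihedralGroup.orderOf_sr]
        have h2 := orderOf_dvd_of_pow_eq_one hj
        rw [hord] at h2
        exact hp ((Nat.prime_dvd_prime_iff_eq Nat.prime_two Fact.out).mp (Nat.prime_two.dvd_of_dvd_pow h2)).symm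
    obtain ⟨i, hi⟩ := rot g k hk
    obtain ⟨i', hi'⟩ := rot g' k' hk'
    have hc : Commute g g' := e.injective (by
      rw [map_mul, map_mul, hi, hi', DihedralGroup.r_mul_r, DihedralGroup.r_mul_r, add_comm])
    exact ⟨k + k', by rw [hc.mul_pow, pow_add, pow_mul, hk, one_pow, mul_comm, pow_mul, hk', one_pow, one_mul]⟩
  | a4 hc h12 e => exact (hp' (hc ▸ h12)).elim
  | s4 hc h24 e => exact (hp' (hc ▸ h24)).elim
  | pgl γ L h => exact ⟨γ, L, h ▸ PS_le_PL L⟩
  | psl γ L h => exact ⟨γ, L, h.ge⟩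
  | a5 hc hor e =>
    rcases hor with h60 | rfl
    · exact (hp' (hc ▸ h60)).elim
    -- characteristic three: an `A₄` inside is `PSL₂(3)`
    obtain ⟨e⟩ := e
    let f : alternatingGroup ({0, 1, 2, 3} : Finset (Fin 5)) →* P2 F :=
      G.subtype.comp (e.symm.toMonoidHom.comp (alternatingGroup.ofSubtype _))
    have hf : Function.Injective f := Subtype.val_injective.comp (e.symm.injective.comp
      fun u v huv => alternatingGroup.ofSubtype_inj.mp huv)
    have hA : Nat.card f.range = 12 := by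
      rw [← Nat.card_congr (MonoidHom.ofInjective hf).toEquiv, Nat.card_eq_fintype_card]
      decide +kernel
    have hle : f.range ≤ G := by rintro _ ⟨u, rfl⟩; exact (e.symm _).2
    cases subKind 3 f.range with
    | pgl γ L h => exact ⟨γ, L, (PS_le_PL L).trans (h ▸ Subgroup.map_mono hle)⟩
    | psl γ L h => exact ⟨γ, L, h ▸ Subgroup.map_mono hle⟩
    | a4 _ h12 _ => exact absurd (by norm_num : 3 ∣ 12) h12
    | s4 _ h24 _ => exact absurd (by norm_num : 3 ∣ 24) h24
    | a5 h60 _ _ => rw [hA] at h60; omega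
    | cyclic _ _ _ _ _ _ _ h3 => exact absurd (hA ▸ (by norm_num : 3 ∣ 12)) h3
    | dih _ _ c hc' _ _ _ _ m _ hord hmc e' =>
      exfalso
      obtain ⟨d⟩ := e'
      let E := (MonoidHom.ofInjective hf).trans d
      obtain rfl : m = 6 := by omega
      have h6 : orderOf (E.symm (DihedralGroup.r 1)) = 6 := by
        rw [E.symm.orderOf_eq, DihedralGroup.orderOf_r_one]
      have : ∀ u : alternatingGroup ({0, 1, 2, 3} : Finset (Fin 5)), u ^ 6 = 1 → u ^ 3 = 1 ∨ u ^ 2 = 1 := by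
        decide +kernel
      rcases this _ (h6 ▸ pow_orderOf_eq_one _) with h | h <;>
        exact absurd (orderOf_dvd_of_pow_eq_one h) (by rw [h6]; norm_num)
    | borel x h =>
      exfalso
      obtain ⟨χ, hχ⟩ := exists_chi 3 f.range x
      have h3 : ∀ u v : alternatingGroup ({0, 1, 2, 3} : Finset (Fin 5)), u ^ 3 = 1 → v ^ 3 = 1 → (u * v) ^ 3 = 1 := by
        intro u v hu hv
        apply hf
        rw [map_pow, map_one]
        have hs : ∀ w : f.range, w ∈ stabilizer f.range x := fun w => h w w.2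
        have h2 := (hχ ⟨⟨f (u * v), _, rfl⟩, hs _⟩).mp (by
          rw [show (⟨⟨f (u * v), _, rfl⟩, hs _⟩ : stabilizer f.range x) =
              ⟨⟨f u, _, rfl⟩, hs _⟩ * ⟨⟨f v, _, rfl⟩, hs _⟩ from Subtype.ext (Subtype.ext (map_mul f u v)),
            map_mul, (hχ _).mpr (by rw [← map_pow, hu, map_one]),
            (hχ _).mpr (by rw [← map_pow, hv, map_one]), mul_one])
        exact h2
      revert h3
      decide +kernel

omit [Fintype F] [CharP F p] [Fact p.Prime] in
theorem toPGL_eq_one {x : SpecialLinearGroup (Fin 2) F} (h : SpecialLinearGroup.toPGL x = (1 : P2 F)) :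
    x = 1 ∨ x = -1 := by
  obtain ⟨h01, h10, h00⟩ := pr_eq_one_iff.mp h
  have e01 : x.1 0 1 = 0 := h01
  have e10 : x.1 1 0 = 0 := h10
  have e00 : x.1 0 0 = x.1 1 1 := h00
  have hd := x.2
  rw [det_fin_two, e01, e10, mul_zero, sub_zero, ← e00, mul_self_eq_one_iff] at hd
  rcases hd with hd | hd
  · exact Or.inl (CfsgLib.SL2.ext2 (by simp [hd]) (by simp [e01]) (by simp [e10]) (by simp [← e00, hd]))
  · exact Or.inr (CfsgLib.SL2.ext2 (by simp [hd]) (by simp [e01]) (by simp [e10]) (by simp [← e00, hd]))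

theorem contains_SL2p (hp : p ≠ 2) (H : Subgroup (SpecialLinearGroup (Fin 2) F))
    (hH : 1 < Nat.card (Sylow p H)) :
    ∃ K : Subgroup (SpecialLinearGroup (Fin 2) F), K ≤ H ∧ Nonempty (K ≃* SpecialLinearGroup (Fin 2) (ZMod p)) := by
  let π : SpecialLinearGroup (Fin 2) F →* P2 F := SpecialLinearGroup.toPGL
  set G := H.map π with hGdef
  have := finite_P2 (F := F)
  have hns : ¬ Subsingleton (Sylow p G) := fun hs => by
    have : Subsingleton (Sylow p H) := subsingleton_sylow fun g g' ⟨k, hk⟩ ⟨k', hk'⟩ => by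
      obtain ⟨T⟩ : Nonempty (Sylow p G) := inferInstance
      let q : H →* G := (π.comp H.subtype).codRestrict G fun u => ⟨u, u.2, rfl⟩
      set N := (T : Subgroup G).comap q with hN
      have hin : ∀ (u : H) (j : ℕ), u ^ p ^ j = 1 → u ∈ N := fun u j hj => by
        have hz : IsPGroup p (Subgroup.zpowers (q u)) := IsPGroup.of_card_dvd_pow (n := j) (by
          rw [Nat.card_zpowers]
          exact orderOf_dvd_of_pow_eq_one (by rw [← map_pow, hj, map_one]))
        obtain ⟨T', hT'⟩ := hz.exists_le_sylow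
        rw [Subsingleton.elim T' T] at hT'
        exact hT' (Subgroup.mem_zpowers _)
      let qN : N →* (T : Subgroup G) := (q.comp N.subtype).codRestrict _ fun u => u.2
      have hq : Function.Surjective qN := by
        rintro ⟨t, ht⟩
        obtain ⟨u, hu, e⟩ := t.2
        have eu : q ⟨u, hu⟩ = t := Subtype.ext e
        exact ⟨⟨⟨u, hu⟩, show q ⟨u, hu⟩ ∈ (T : Subgroup G) from eu.symm ▸ ht⟩, Subtype.ext eu⟩
      obtain ⟨P⟩ : Nonempty (Sylow p N) := inferInstance
      have htop : ((P.mapSurjective hq : Sylow p (T : Subgroup G)) : Subgroup (T : Subgroup G)) = ⊤ :=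
        ((P.mapSurjective hq).is_maximal' (T.2.to_subgroup ⊤) le_top).symm
      have hP : ∀ (u : H) (j : ℕ), u ^ p ^ j = 1 → ∃ v ∈ P, (v : N).1 = u := by
        intro u j hj
        obtain ⟨v, hv, e⟩ := (htop.ge (Subgroup.mem_top (qN ⟨u, hin u j hj⟩)) :
          qN ⟨u, hin u j hj⟩ ∈ ((P.mapSurjective hq : Sylow p (T : Subgroup G)) : Subgroup (T : Subgroup G)))
        obtain ⟨i, hi⟩ := P.2 ⟨v, hv⟩
        have hv' : (v : N).1 ^ p ^ i = 1 :=
          congrArg (fun w : (P : Subgroup N) => ((w : N) : H)) hi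
        refine ⟨v, hv, ?_⟩
        set n : SpecialLinearGroup (Fin 2) F := ((v : N).1 : SpecialLinearGroup (Fin 2) F)⁻¹ * u with hn
        have hπn : π n = 1 := by
          have e1 : π ((v : N).1 : SpecialLinearGroup (Fin 2) F) = π u :=
            congrArg (fun w : (T : Subgroup G) => ((w : G) : P2 F)) e
          rw [hn, map_mul, map_inv, e1, inv_mul_cancel]
        apply Subtype.ext
        rcases toPGL_eq_one hπn with h1 | h1
        · exact inv_mul_eq_one.mp h1
        · have h2 : ((v : N).1 : SpecialLinearGroup (Fin 2) F) * (-1) = u := by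
            rw [← h1, hn, mul_inv_cancel_left]
          have hc : Commute ((v : N).1 : SpecialLinearGroup (Fin 2) F) (-1) := Commute.neg_one_right _
          have h3 : ((v : N).1 : SpecialLinearGroup (Fin 2) F) ^ (p ^ i * p ^ j) * (-1) ^ (p ^ i * p ^ j) =
              (u : SpecialLinearGroup (Fin 2) F) ^ (p ^ i * p ^ j) := by rw [← hc.mul_pow, h2]
          rw [pow_mul, ← Subgroup.coe_pow, hv', Subgroup.coe_one, one_pow, one_mul, mul_comm (p ^ i), pow_mul
            (u : SpecialLinearGroup (Fin 2) F), ← Subgroup.coe_pow, hj, Subgroup.coe_one, one_pow,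
            Odd.neg_one_pow ((((Fact.out : p.Prime).odd_of_ne_two hp).pow).mul
              (((Fact.out : p.Prime).odd_of_ne_two hp).pow))] at h3
          rw [← h2, h3, mul_one]
      obtain ⟨v, hv, rfl⟩ := hP g k hk
      obtain ⟨v', hv', rfl⟩ := hP g' k' hk'
      obtain ⟨i, hi⟩ := P.2 ⟨v * v', mul_mem hv hv'⟩
      exact ⟨i, congrArg (fun w : (P : Subgroup N) => ((w : N) : H)) hi⟩
    have h1 := Nat.card_unique (α := Sylow p H)
    omega
  obtain ⟨γ, L, hL⟩ := exists_PS p hp G hns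
  obtain ⟨g0, rfl⟩ := exists_pr γ
  let c : ZMod p →+* F := ZMod.castHom dvd_rfl F
  let cL : ZMod p →+* L := ZMod.castHom dvd_rfl L
  have hmem : ∀ x : SpecialLinearGroup (Fin 2) (ZMod p),
      SpecialLinearGroup.toPGL (SpecialLinearGroup.map c x) ∈ PS L := fun x => by
    refine ⟨SpecialLinearGroup.map cL x, ?_⟩
    refine congrArg pr (Units.ext ?_)
    ext i j
    show L.subtype (cL (x.1 i j)) = c (x.1 i j)
    exact RingHom.congr_fun (Subsingleton.elim (L.subtype.comp cL) c) _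
  have hdet : ∀ x : SpecialLinearGroup (Fin 2) F,
      ((g0⁻¹ : GL (Fin 2) F) : Matrix (Fin 2) (Fin 2) F).det *
        ((x : Matrix (Fin 2) (Fin 2) F).det * (g0 : Matrix (Fin 2) (Fin 2) F).det) = 1 := fun x => by
    rw [x.2, one_mul, ← det_mul, ← Units.val_mul, inv_mul_cancel, Units.val_one, det_one]
  let cj : SpecialLinearGroup (Fin 2) F →* SpecialLinearGroup (Fin 2) F :=
    MonoidHom.mk' (fun x => ⟨((g0⁻¹ : GL (Fin 2) F) : Matrix (Fin 2) (Fin 2) F) *
      ((x : Matrix (Fin 2) (Fin 2) F) * (g0 : Matrix (Fin 2) (Fin 2) F)), by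
        rw [det_mul, det_mul, hdet]⟩) (fun x y => Subtype.ext (by
          show _ * ((x.1 * y.1) * _) = (_ * (x.1 * _)) * (_ * (y.1 * _))
          simp only [mul_assoc]
          rw [← mul_assoc (g0 : Matrix (Fin 2) (Fin 2) F) ((g0⁻¹ : GL (Fin 2) F) : Matrix (Fin 2) (Fin 2) F),
            ← Units.val_mul, mul_inv_cancel, Units.val_one, one_mul]))
  let ψ : SpecialLinearGroup (Fin 2) (ZMod p) →* SpecialLinearGroup (Fin 2) F :=
    cj.comp (SpecialLinearGroup.map c)
  have hψG : ∀ x, π (ψ x) ∈ G := fun x => by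
    obtain ⟨u, hu, e⟩ := hL (hmem x)
    have e' : pr g0 * u * (pr g0)⁻¹ = π (SpecialLinearGroup.map c x) := e
    have : π (ψ x) = (pr g0)⁻¹ * (π (SpecialLinearGroup.map c x) * pr g0) := by
      refine (congrArg pr (Units.ext ?_)).trans ((map_mul pr _ _).trans (congrArg₂ (· * ·) (map_inv pr g0) (map_mul pr _ g0)))
      rfl
    rw [this, ← e']
    group
    exact hu
  have hm1 : (-1 : SpecialLinearGroup (Fin 2) F) ∈ H := by
    let w : SpecialLinearGroup (Fin 2) (ZMod p) := CfsgLib.SL2.mk2 0 1 (-1) 0 (by ring)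
    obtain ⟨h, hh, e⟩ := hψG w
    have hw : w * w = -1 := CfsgLib.SL2.ext2 (by simp [w, Matrix.mul_apply, Fin.sum_univ_two])
      (by simp [w, Matrix.mul_apply, Fin.sum_univ_two]) (by simp [w, Matrix.mul_apply, Fin.sum_univ_two])
      (by simp [w, Matrix.mul_apply, Fin.sum_univ_two])
    have hψm : ψ (-1) = -1 := Subtype.ext (by
      show _ * ((SpecialLinearGroup.map c (-1)).1 * _) = _
      rw [show (SpecialLinearGroup.map c (-1)).1 = (-1 : Matrix (Fin 2) (Fin 2) F) by ext i j; fin_cases i <;> fin_cases j <;> simp]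
      rw [neg_one_mul, mul_neg, ← Units.val_mul, inv_mul_cancel, Units.val_one]
      rfl)
    have e' : π ((ψ w)⁻¹ * h) = 1 := by rw [map_mul, map_inv, e, inv_mul_cancel]
    rcases toPGL_eq_one e' with h1 | h1
    · rw [inv_mul_eq_one] at h1
      rw [← hψm, ← hw, map_mul, h1]
      exact mul_mem hh hh
    · rw [inv_mul_eq_iff_eq_mul, mul_neg, mul_one] at h1
      rw [← hψm, ← hw, map_mul, ← neg_mul_neg, ← h1]
      exact mul_mem hh hh
  refine ⟨ψ.range, ?_, ⟨(MonoidHom.ofInjective ?_).symm⟩⟩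
  · rintro _ ⟨x, rfl⟩
    obtain ⟨h, hh, e⟩ := hψG x
    have e' : π (h⁻¹ * ψ x) = 1 := by rw [map_mul, map_inv, e, inv_mul_cancel]
    rcases toPGL_eq_one e' with h1 | h1 <;> rw [inv_mul_eq_iff_eq_mul] at h1 <;> rw [h1]
    · rwa [mul_one]
    · exact mul_mem hh hm1
  · intro x y hxy
    have h1 : ((g0⁻¹ : GL (Fin 2) F) : Matrix (Fin 2) (Fin 2) F) * ((SpecialLinearGroup.map c x).1 * (g0 : Matrix (Fin 2) (Fin 2) F)) =
        ((g0⁻¹ : GL (Fin 2) F) : Matrix (Fin 2) (Fin 2) F) * ((SpecialLinearGroup.map c y).1 * (g0 : Matrix (Fin 2) (Fin 2) F)) :=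
      congrArg Subtype.val hxy
    have h2 : (SpecialLinearGroup.map c x).1 = (SpecialLinearGroup.map c y).1 :=
      g0.isUnit.mul_right_cancel ((g0⁻¹).isUnit.mul_left_cancel h1)
    exact Subtype.ext (Matrix.ext fun i j => c.injective (congrFun (congrFun h2 i) j))

end CfsgLib.H29.DicksonSL
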